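import Cfsg.Agent.H624.Sl.Tw
import Cfsg.Agent.H16.Sl.DefZero
import Cfsg.Agent.H595.Central

/-!
# S4536, W4: `exists_nz_of_linear`

A linear character `ψ` of a `p'`-subgroup `U ≤ ker ζ` which is contained exactly once in `χ` gives an element
`u ∈ U` with `e_B * tw ζ u` not nilpotent.
-/

set_option autoImplicit false
set_option linter.unusedSectionVars false

open Cfsg
open scoped ComplexConjugate

namespace Cfsg.Agent.H223.Sl

open Cfsg.Agent.H644 Cfsg.Agent.Blocks.Local Cfsg.Agent.H648.Dict Cfsg.Agent.H624.Sl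
open Cfsg.Agent.Characters.Core
open Cfsg.Agent.Blocks.Basic (isPBlock_blockOf mem_blockOf_self irr_one_eq_charDegree charDegree_pos)
open Cfsg.Agent.H666.Clif (Ov ov_iff)

section Ind

variable {G : Type*} [Group G]

/-- If `G / N` is cyclic and `χ` vanishes off `N`, then `χ` is induced from `N`. -/
theorem ind_eq [Fintype G] (N : Subgroup G) [N.Normal] [Fintype N] (hc : IsCyclic (G ⧸ N))
    {χ : IrrCharacter G} {ε : IrrCharacter N} (h : Ov N χ ε) (hv : ∀ g, (χ : G → ℂ) g ≠ 0 → g ∈ N) :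
    indFun N (ε : N → ℂ) = (χ : G → ℂ) := by
  classical
  have := Characters.Core.finite_irr (G := G)
  have := Fintype.ofFinite (IrrCharacter G)
  obtain ⟨-, h3⟩ := Cfsg.Agent.H16.Sl.stab_eq N hc h hv
  obtain ⟨a, ha, ha'⟩ := CharDeep.CliffordCorr.exists_nat_coeffs_indFun N
    (Characters.Core.isIrr_isCharacter ε.2)
  have h0 : a χ ≠ 0 := by
    intro h1
    have h2 := ha' χ
    rw [h1, Nat.cast_zero, ← classInner_conj_symm, map_eq_zero] at h2
    exact (ov_iff N χ ε).1 h h2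
  have h4 : ∑ ψ : IrrCharacter G, a ψ * charDegree (ψ : G → ℂ) = charDegree (χ : G → ℂ) := by
    have h5 := congrFun ha 1
    rw [CharactersDeep.NormalInd.indFun_one, ← h3, Finset.sum_apply, irr_one_eq_charDegree χ.2] at h5
    have h6 : ∑ ψ : IrrCharacter G, ((a ψ : ℂ) • (ψ : G → ℂ)) 1 =
        ((∑ ψ : IrrCharacter G, a ψ * charDegree (ψ : G → ℂ) : ℕ) : ℂ) := by
      rw [Nat.cast_sum]
      refine Finset.sum_congr rfl fun ψ _ => ?_
      rw [Pi.smul_apply, smul_eq_mul, irr_one_eq_charDegree ψ.2, Nat.cast_mul]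
    rw [h6] at h5
    exact_mod_cast h5.symm
  have hd0 := charDegree_pos χ.2
  rw [← Finset.add_sum_erase _ _ (Finset.mem_univ χ)] at h4
  have h5 : charDegree (χ : G → ℂ) ≤ a χ * charDegree (χ : G → ℂ) :=
    Nat.le_mul_of_pos_left _ (Nat.pos_of_ne_zero h0)
  have h6 : ∑ ψ ∈ Finset.univ.erase χ, a ψ * charDegree (ψ : G → ℂ) = 0 := by omega
  have h7 : a χ = 1 := by
    have h8 : a χ * charDegree (χ : G → ℂ) = 1 * charDegree (χ : G → ℂ) := by omega
    exact Nat.eq_of_mul_eq_mul_right hd0 h8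
  rw [ha, Finset.sum_eq_single χ, h7, Nat.cast_one, one_smul]
  · intro ψ _ hne
    have h8 := (Finset.sum_eq_zero_iff.1 h6) ψ (Finset.mem_erase.2 ⟨hne, Finset.mem_univ _⟩)
    rcases Nat.mul_eq_zero.1 h8 with h9 | h9
    · rw [h9, Nat.cast_zero, zero_smul]
    · exact absurd h9 (charDegree_pos ψ.2).ne'
  · exact fun h => absurd (Finset.mem_univ _) h

end Ind

section Lin

variable {G : Type*} [Group G] [Finite G]

theorem conj_hom {U : Type*} [Group U] [Finite U] (ψ : U →* ℂˣ) (u : U) :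
    conj ((ψ u : ℂˣ) : ℂ) = (((ψ u)⁻¹ : ℂˣ) : ℂ) := by
  rw [← isCharacter_apply_inv (isIrr_isCharacter (Cfsg.Agent.H595.Central.isIrr_hom ψ)) u, map_inv]

/-- the multiplicity of `ψ` in the conjugate of `ε` -/
theorem exists_mult [Fintype G] (N : Subgroup G) [hN : N.Normal] (ε : IrrCharacter N) (U : Subgroup G) [Fintype U]
    (hUN : U ≤ N) (ψ : U →* ℂˣ) (g : G) :
    ∃ m : ℕ, ∑ u : U, extendByZero N (ε : N → ℂ) (g⁻¹ * u * g) * (((ψ u)⁻¹ : ℂˣ) : ℂ) = Nat.card U * m := by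
  classical
  let f : U →* N :=
    { toFun := fun u => ⟨g⁻¹ * u * g, by
        have := hN.conj_mem u (hUN u.2) g⁻¹
        rwa [inv_inv] at this⟩
      map_one' := by
        apply Subtype.ext
        simp
      map_mul' := by
        intro x y
        apply Subtype.ext
        simp only [Subgroup.coe_mul]
        group }
  obtain ⟨m, hm⟩ := classInner_isNat (isCharacter_comp f (isIrr_isCharacter ε.2))
    (isIrr_isCharacter (Cfsg.Agent.H595.Central.isIrr_hom ψ))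
  refine ⟨m, ?_⟩
  rw [← hm, classInner_def, ← mul_assoc, mul_inv_cancel₀ card_ne_zero_complex, one_mul]
  refine Finset.sum_congr rfl fun u _ => ?_
  have h1 : extendByZero N (ε : N → ℂ) (g⁻¹ * u * g) = (ε : N → ℂ) (f u) :=
    extendByZero_of_mem N _ (f u).2
  rw [conj_hom, h1, Function.comp_apply]

/-- the twisted sum of the conjugates of `ε` -/
noncomputable def Fz [Fintype G] (ζ : G →* ℂˣ) (N : Subgroup G) (ε : N → ℂ) (x : G) : ℂ :=
  ∑ g : G, ((ζ g : ℂˣ) : ℂ) * extendByZero N ε (g * x * g⁻¹)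

theorem Fz_eq_zero [Fintype G] (ζ : G →* ℂˣ) (N : Subgroup G) (ε : N → ℂ) {x c : G}
    (hc : c * x = x * c) (hζ : ζ c ≠ 1) : Fz ζ N ε x = 0 := by
  have h1 : Fz ζ N ε x = ((ζ c : ℂˣ) : ℂ) * Fz ζ N ε x := by
    conv_lhs => rw [Fz]
    rw [Fz, Finset.mul_sum]
    refine Fintype.sum_equiv (Equiv.mulRight c⁻¹) _ _ fun g => ?_
    rw [Equiv.coe_mulRight, ← mul_assoc, ← Units.val_mul, ← map_mul]
    have h2 : c * (g * c⁻¹) = c * g * c⁻¹ := by group
    have h3 : g * c⁻¹ * x * (g * c⁻¹)⁻¹ = g * (c⁻¹ * (x * c)) * g⁻¹ := by group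
    rw [h3, ← hc, inv_mul_cancel_left, map_mul, map_mul, mul_comm (ζ c), map_inv,
      inv_mul_cancel_right]
  have h2 : (((ζ c : ℂˣ) : ℂ) - 1) * Fz ζ N ε x = 0 := by rw [sub_mul, one_mul, ← h1, sub_self]
  refine (mul_eq_zero.1 h2).resolve_left fun h => hζ (Units.ext ?_)
  rw [Units.val_one]
  exact sub_eq_zero.1 h

open Classical in
theorem sum_conj [Fintype G] (x : G) (φ : G → ℂ) :
    ∑ g : G, φ (g * x * g⁻¹) = Nat.card (Subgroup.centralizer ({x} : Set G)) *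
      ∑ y : G, if ∃ g : G, g * x * g⁻¹ = y then φ y else 0 := by
  rw [← Finset.sum_fiberwise (s := (Finset.univ : Finset G)) (g := fun g => g * x * g⁻¹), Finset.mul_sum]
  refine Finset.sum_congr rfl fun y _ => ?_
  have h1 : ∑ g ∈ Finset.univ.filter (fun g => g * x * g⁻¹ = y), φ (g * x * g⁻¹) =
      ∑ g ∈ Finset.univ.filter (fun g => g * x * g⁻¹ = y), φ y :=
    Finset.sum_congr rfl fun g hg => by rw [(Finset.mem_filter.1 hg).2]
  rw [h1, Finset.sum_const, nsmul_eq_mul]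
  by_cases h : ∃ g : G, g * x * g⁻¹ = y
  · rw [if_pos h]
    obtain ⟨g₀, hg₀⟩ := h
    congr 2
    rw [← Nat.subtype_card (p := fun g => g * x * g⁻¹ = y) _ (fun g => by simp)]
    refine Nat.card_congr ⟨fun g => ⟨g₀⁻¹ * g, ?_⟩, fun c => ⟨g₀ * c, ?_⟩, fun g => ?_, fun c => ?_⟩
    · rw [Subgroup.mem_centralizer_singleton_iff]
      have h2 : (g : G) * x * (g : G)⁻¹ = g₀ * x * g₀⁻¹ := g.2.trans hg₀.symm
      calc g₀⁻¹ * (g : G) * x = g₀⁻¹ * (g * x * (g : G)⁻¹) * g := by group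
        _ = x * (g₀⁻¹ * g) := by rw [h2]; group
    · have h2 := Subgroup.mem_centralizer_singleton_iff.1 c.2
      calc g₀ * (c : G) * x * (g₀ * c)⁻¹ = g₀ * (c * x) * (c : G)⁻¹ * g₀⁻¹ := by group
        _ = y := by rw [h2, ← hg₀]; group
    · apply Subtype.ext
      simp
    · apply Subtype.ext
      simp
  · rw [if_neg h, mul_zero, Finset.filter_eq_empty_iff.2 (fun g _ hg => h ⟨g, hg⟩), Finset.card_empty,
      Nat.cast_zero, zero_mul]

open Classical in
/-- `F(x) = ε(1) |C(x)| ω` where `ω` reduces to the value of the central character at `tw ζ x` -/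
theorem Fz_eq [Fintype G] (M : Ideal AlgInt) [M.IsPrime] (ζ : G →* ℂˣ) (ε : IrrCharacter ζ.ker) {x : G}
    (hx : Subgroup.centralizer ({x} : Set G) ≤ ζ.ker) : ∃ w : ℂ, MemLocalRing M w ∧
      Fz ζ ζ.ker (ε : ζ.ker → ℂ) x =
        (ε : ζ.ker → ℂ) 1 * Nat.card (Subgroup.centralizer ({x} : Set G)) * w ∧
      lam M (ε : ζ.ker → ℂ) (res ζ.ker (tw M ζ x)) = redC M w := by
  have := Fintype.ofFinite ζ.ker
  let fe : G → ℂ := fun y => if h : ∃ g : G, g * x * g⁻¹ = y then ((ζ h.choose : ℂˣ) : ℂ) else 0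
  have hfe : ∀ g, fe (g * x * g⁻¹) = ((ζ g : ℂˣ) : ℂ) := by
    intro g
    have h : ∃ g' : G, g' * x * g'⁻¹ = g * x * g⁻¹ := ⟨g, rfl⟩
    have h0 : fe (g * x * g⁻¹) = ((ζ h.choose : ℂˣ) : ℂ) := dif_pos h
    have h1 := h.choose_spec
    have h2 : g⁻¹ * h.choose ∈ ζ.ker := by
      apply hx
      rw [Subgroup.mem_centralizer_singleton_iff]
      calc g⁻¹ * h.choose * x = g⁻¹ * (h.choose * x * h.choose⁻¹) * h.choose := by group
        _ = g⁻¹ * (g * x * g⁻¹) * h.choose := by rw [h1]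
        _ = x * (g⁻¹ * h.choose) := by group
    rw [MonoidHom.mem_ker, map_mul, map_inv, inv_mul_eq_one] at h2
    rw [h0, ← h2]
  have hfe0 : ∀ y, (¬ ∃ g : G, g * x * g⁻¹ = y) → fe y = 0 := fun y hy => dif_neg hy
  let f : ζ.ker → ℂ := fun y => fe y
  have hfc : IsClassFunction ζ.ker f := by
    intro n h
    change fe ((h : G) * n * (h : G)⁻¹) = fe n
    by_cases hn : ∃ g : G, g * x * g⁻¹ = n
    · obtain ⟨g, hg⟩ := hn
      have h1 : (h : G) * n * (h : G)⁻¹ = (h * g) * x * (h * g)⁻¹ := by rw [← hg]; group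
      rw [h1, ← hg, hfe, hfe, map_mul, MonoidHom.mem_ker.1 h.2, one_mul]
    · rw [hfe0 _ hn, hfe0]
      rintro ⟨g, hg⟩
      refine hn ⟨(h : G)⁻¹ * g, ?_⟩
      calc (h : G)⁻¹ * g * x * ((h : G)⁻¹ * g)⁻¹ = (h : G)⁻¹ * (g * x * g⁻¹) * h := by group
        _ = n := by
          rw [hg]
          group
  have hfR : ∀ y, MemLocalRing M (f y) := by
    intro y
    change MemLocalRing M (fe y)
    by_cases hn : ∃ g : G, g * x * g⁻¹ = y
    · obtain ⟨g, hg⟩ := hn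
      rw [← hg, hfe]
      exact memLocalRing_val ζ g
    · rw [hfe0 _ hn]
      exact memLocalRing_zero
  have hε0 := Blocks.Basic.irr_one_ne_zero ε.2
  refine ⟨Cfsg.Agent.Blocks.MinMax.omega (ε : ζ.ker → ℂ) f,
    Cfsg.Agent.Blocks.MinMax.memLocalRing_omega ε.2 hfc hfR, ?_, ?_⟩
  · rw [Cfsg.Agent.Blocks.MinMax.omega_def, Cfsg.Agent.Blocks.ConvCentral.lin_def]
    have h1 : Fz ζ ζ.ker (ε : ζ.ker → ℂ) x =
        ∑ g : G, (fun y => fe y * extendByZero ζ.ker (ε : ζ.ker → ℂ) y) (g * x * g⁻¹) := by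
      rw [Fz]
      refine Finset.sum_congr rfl fun g _ => ?_
      change _ = fe (g * x * g⁻¹) * _
      rw [hfe]
    rw [h1, sum_conj x (fun y => fe y * extendByZero ζ.ker (ε : ζ.ker → ℂ) y)]
    have h2 : ∑ y : G, (if ∃ g : G, g * x * g⁻¹ = y then
        (fun y => fe y * extendByZero ζ.ker (ε : ζ.ker → ℂ) y) y else 0) =
        ∑ n : ζ.ker, f n * (ε : ζ.ker → ℂ) n := by
      have h3 : ∀ y : G, (if ∃ g : G, g * x * g⁻¹ = y then
          (fun y => fe y * extendByZero ζ.ker (ε : ζ.ker → ℂ) y) y else 0) =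
          fe y * extendByZero ζ.ker (ε : ζ.ker → ℂ) y := by
        intro y
        by_cases hy : ∃ g : G, g * x * g⁻¹ = y
        · rw [if_pos hy]
        · rw [if_neg hy, hfe0 y hy, zero_mul]
      rw [Finset.sum_congr rfl fun y _ => h3 y]
      rw [← Finset.sum_filter_add_sum_filter_not Finset.univ (fun y : G => y ∈ ζ.ker)]
      rw [Finset.sum_eq_zero (s := Finset.univ.filter (fun y : G => ¬ y ∈ ζ.ker)), add_zero]
      · rw [Finset.sum_subtype (p := fun y => y ∈ ζ.ker) _ (fun y => by simp)]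
        refine Fintype.sum_equiv (Equiv.refl _) _ _ fun n => ?_
        rw [extendByZero_of_mem ζ.ker _ n.2]
        rfl
      · intro y hy
        rw [extendByZero_of_notMem ζ.ker _ (Finset.mem_filter.1 hy).2, mul_zero]
    rw [h2]
    field_simp
  · rw [← Cfsg.Agent.H644.lam_toK ε.2 hfc hfR]
    congr 1
    refine ext_coeff fun n => ?_
    rw [coeff_res, coeff_toK, tw, coeff_mkA]
    change _ = redC M (fe n)
    by_cases hn : ∃ g : G, g * x * g⁻¹ = n
    · rw [dif_pos hn]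
      have h0 : fe n = ((ζ hn.choose : ℂˣ) : ℂ) := dif_pos hn
      rw [h0]
    · rw [dif_neg hn, hfe0 _ hn, redC_zero]

/-- a quotient of natural numbers in the local ring -/
theorem memLocalRing_div_nat {p : ℕ} {M : Ideal AlgInt} [M.IsPrime] (hM : IsPModular p M) {a b : ℕ}
    (hb : b ≠ 0) (ha : a ≠ 0) (h : b.factorization p ≤ a.factorization p) :
    MemLocalRing M ((a : ℂ) / b) := by
  have hp := hM.1
  obtain ⟨c, hc⟩ : p ^ b.factorization p ∣ a := (hp.pow_dvd_iff_le_factorization ha).2 h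
  have hb1 : b = p ^ b.factorization p * (b / p ^ b.factorization p) :=
    (Nat.mul_div_cancel' (Nat.ordProj_dvd b p)).symm
  have hb2 : ¬ p ∣ b / p ^ b.factorization p := Nat.not_dvd_ordCompl hp hb
  have hp0 : ((p ^ b.factorization p : ℕ) : ℂ) ≠ 0 :=
    Nat.cast_ne_zero.2 (pow_ne_zero _ hp.ne_zero)
  have h1 : (a : ℂ) / b = c * ((b / p ^ b.factorization p : ℕ) : ℂ)⁻¹ := by
    have h2 : (a : ℂ) = ((p ^ b.factorization p : ℕ) : ℂ) * c := by exact_mod_cast hc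
    have h3 : (b : ℂ) = ((p ^ b.factorization p : ℕ) : ℂ) * ((b / p ^ b.factorization p : ℕ) : ℂ) := by
      exact_mod_cast hb1
    rw [h2, h3, mul_div_mul_left _ _ hp0, div_eq_mul_inv]
  rw [h1]
  exact memLocalRing_mul (memLocalRing_natCast c) (memLocalRing_inv_natCast hM hb2)

theorem extendByZero_conj (N : Subgroup G) [hN : N.Normal] (ε : IrrCharacter N) (n : G) (hn : n ∈ N)
    (x : G) : extendByZero N (ε : N → ℂ) (n⁻¹ * x * n) = extendByZero N (ε : N → ℂ) x := by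
  by_cases hx : x ∈ N
  · have h1 : n⁻¹ * x * n ∈ N := N.mul_mem (N.mul_mem (N.inv_mem hn) hx) hn
    rw [extendByZero_of_mem N _ hx, extendByZero_of_mem N _ h1]
    have h2 := (isIrr_isClassFunction ε.2) ⟨x, hx⟩ (⟨n, hn⟩ : N)⁻¹
    rw [← h2]
    refine congrArg (ε : N → ℂ) (Subtype.ext ?_)
    simp
  · have h1 : n⁻¹ * x * n ∉ N := by
      intro h
      apply hx
      have h2 := N.mul_mem (N.mul_mem hn h) (N.inv_mem hn)
      have h3 : n * (n⁻¹ * x * n) * n⁻¹ = x := by group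
      rwa [h3] at h2
    rw [extendByZero_of_notMem N _ hx, extendByZero_of_notMem N _ h1]

/-- W4: a linear character `ψ` of the `p'`-subgroup `U ≤ ker ζ` contained exactly once in `χ`. -/
theorem exists_nz_of_linear {p : ℕ} {M : Ideal AlgInt} [M.IsPrime] (hM : IsPModular p M)
    {ζ : G →* ℂˣ} (hζ : PPrime p ζ)
    (χ : IrrCharacter G) (hf : FixIrr ζ (χ : G → ℂ)) (U : Subgroup G) (hU : (Nat.card U).Coprime p)
    (hUζ : U ≤ ζ.ker) (ψ : U →* ℂˣ)
    (h1 : ∑ᶠ u : U, (χ : G → ℂ) u * ((ψ u)⁻¹ : ℂˣ) = Nat.card U)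
    (hd : (charDegree (χ : G → ℂ)).factorization p + (Nat.card (Subgroup.center G)).factorization p =
      (Nat.card G).factorization p) :
    ∃ u ∈ U, Nz M ζ (blockOf M (χ : G → ℂ)) u := by
  classical
  have : Fact p.Prime := ⟨hM.1⟩
  have hp : p.Prime := hM.1
  have := Fintype.ofFinite G
  have := Fintype.ofFinite ζ.ker
  have := Fintype.ofFinite U
  obtain ⟨ε, hε⟩ := Cfsg.Agent.Blocks.Fong.exists_constituent ζ.ker χ
  have hov : Ov ζ.ker χ ε := (ov_iff ζ.ker χ ε).2 hε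
  have hv : ∀ g, (χ : G → ℂ) g ≠ 0 → g ∈ ζ.ker := fun g hg => MonoidHom.mem_ker.2 (hf g hg)
  have hcyc := Cfsg.Agent.H16.Sl.isCyclic_quot_ker ζ
  obtain ⟨-, hdeg⟩ := Cfsg.Agent.H16.Sl.stab_eq ζ.ker hcyc hov hv
  have hind := ind_eq ζ.ker hcyc hov hv
  have hcov : Covers ζ.ker (blockOf M (χ : G → ℂ)) (blockOf M (ε : ζ.ker → ℂ)) :=
    ⟨χ, mem_blockOf_self χ, ε, mem_blockOf_self ε, hε⟩
  have hN0 : (Nat.card ζ.ker : ℂ) ≠ 0 := card_ne_zero_complex
  by_contra hcon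
  have hcon' : ∀ u ∈ U, ¬ Nz M ζ (blockOf M (χ : G → ℂ)) u := fun u hu h => hcon ⟨u, hu, h⟩
  -- degrees
  have h2 : charDegree (χ : G → ℂ) = ζ.ker.index * charDegree (ε : ζ.ker → ℂ) := by
    rw [irr_one_eq_charDegree χ.2, irr_one_eq_charDegree ε.2] at hdeg
    exact_mod_cast hdeg
  have hi0 : ζ.ker.index ≠ 0 := Subgroup.index_ne_zero_of_finite
  have he0 : charDegree (ε : ζ.ker → ℂ) ≠ 0 := (charDegree_pos ε.2).ne'
  have h3 : (charDegree (ε : ζ.ker → ℂ)).factorization p +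
      (Nat.card (Subgroup.center G)).factorization p = (Nat.card ζ.ker).factorization p := by
    rw [h2, ← Subgroup.card_mul_index ζ.ker, Nat.factorization_mul hi0 he0,
      Nat.factorization_mul Nat.card_pos.ne' hi0, Finsupp.add_apply, Finsupp.add_apply] at hd
    omega
  -- (A)
  have hA : ∀ u ∈ U, MemLocalIdeal M (Fz ζ ζ.ker (ε : ζ.ker → ℂ) u / Nat.card ζ.ker) := by
    intro u hu
    by_cases hc : Subgroup.centralizer ({u} : Set G) ≤ ζ.ker
    · obtain ⟨w, hw, hF, hl⟩ := Fz_eq M ζ ε hc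
      have hw0 : MemLocalIdeal M w := by
        by_contra hw0
        refine hcon' u hu ⟨hc, not_isNilpotent_of_lam hM hζ (isPBlock_blockOf χ) (isTw_tw hM hc)
          (isPBlock_blockOf ε) hcov (mem_blockOf_self ε) ?_⟩
        rw [hl]
        intro h
        exact hw0 ((redC_eq_zero_iff hw).1 h)
      have h4 : Fz ζ ζ.ker (ε : ζ.ker → ℂ) u / Nat.card ζ.ker =
          (((charDegree (ε : ζ.ker → ℂ) * Nat.card (Subgroup.centralizer ({u} : Set G)) : ℕ) : ℂ) /
            (Nat.card ζ.ker : ℕ)) * w := by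
        rw [hF, irr_one_eq_charDegree ε.2, Nat.cast_mul]
        ring
      rw [h4]
      refine memLocalIdeal_mul_left (memLocalRing_div_nat hM Nat.card_pos.ne'
        (Nat.mul_ne_zero he0 Nat.card_pos.ne') ?_) hw0
      rw [Nat.factorization_mul he0 Nat.card_pos.ne', Finsupp.add_apply, ← h3]
      refine Nat.add_le_add_left ?_ _
      have h5 : Nat.card (Subgroup.center G) ∣ Nat.card (Subgroup.centralizer ({u} : Set G)) :=
        Subgroup.card_dvd_of_le (Subgroup.center_le_centralizer _)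
      exact (Nat.factorization_le_iff_dvd Nat.card_pos.ne' Nat.card_pos.ne').2 h5 p
    · obtain ⟨c, hc1, hc2⟩ := SetLike.not_le_iff_exists.1 hc
      rw [Fz_eq_zero ζ ζ.ker (ε : ζ.ker → ℂ) (Subgroup.mem_centralizer_singleton_iff.1 hc1)
        (fun h => hc2 (MonoidHom.mem_ker.2 h)), zero_div]
      exact memLocalIdeal_zero
  -- multiplicities
  choose m hm using exists_mult ζ.ker ε U hUζ ψ
  have hU0 : (Nat.card U : ℂ) ≠ 0 := card_ne_zero_complex
  have hmN : ∀ g, ∀ n ∈ ζ.ker, m (g * n) = m g := by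
    intro g n hn
    have h4 : (Nat.card U : ℂ) * m (g * n) = Nat.card U * m g := by
      rw [← hm, ← hm]
      refine Finset.sum_congr rfl fun u _ => ?_
      have h5 : (g * n)⁻¹ * (u : G) * (g * n) = n⁻¹ * (g⁻¹ * u * g) * n := by group
      rw [h5, extendByZero_conj ζ.ker ε n hn]
    exact_mod_cast mul_left_cancel₀ hU0 h4
  have hsum : ∑ g : G, m g = Nat.card ζ.ker := by
    have h4 : ((∑ g : G, m g : ℕ) : ℂ) = Nat.card ζ.ker := by
      rw [finsum_eq_sum_of_fintype] at h1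
      have h5 : ∑ u : U, (χ : G → ℂ) u * ((ψ u)⁻¹ : ℂˣ) =
          (Nat.card ζ.ker : ℂ)⁻¹ * ∑ g : G, (Nat.card U : ℂ) * m g := by
        rw [Finset.mul_sum]
        simp_rw [← hm]
        simp_rw [Finset.mul_sum]
        rw [Finset.sum_comm]
        refine Finset.sum_congr rfl fun u _ => ?_
        rw [← hind, indFun_apply, Finset.mul_sum, Finset.sum_mul]
        refine Finset.sum_congr rfl fun g _ => ?_
        ring
      rw [h5, ← Finset.mul_sum] at h1
      rw [Nat.cast_sum]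
      have h6 : (Nat.card U : ℂ) * ∑ g : G, (m g : ℂ) = Nat.card U * Nat.card ζ.ker := by
        have h7 : (Nat.card ζ.ker : ℂ) * ((Nat.card ζ.ker : ℂ)⁻¹ * ((Nat.card U : ℂ) * ∑ g : G, (m g : ℂ))) =
            (Nat.card ζ.ker : ℂ) * Nat.card U := by rw [h1]
        rw [mul_inv_cancel_left₀ hN0] at h7
        rw [h7, mul_comm]
      exact mul_left_cancel₀ hU0 h6
    exact_mod_cast h4
  obtain ⟨g₀, hg₀⟩ : ∃ g₀, m g₀ ≠ 0 := by
    by_contra hne
    push Not at hne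
    rw [Finset.sum_eq_zero fun g _ => hne g] at hsum
    exact Nat.card_pos.ne hsum
  let S : Finset G := Finset.univ.filter fun g => g₀⁻¹ * g ∈ ζ.ker
  have hSc : S.card = Nat.card ζ.ker := by
    rw [← Nat.subtype_card (p := fun g => g₀⁻¹ * g ∈ ζ.ker) S (fun g => by simp [S])]
    exact Nat.card_congr ⟨fun g => ⟨_, g.2⟩, fun n => ⟨g₀ * n, by simp⟩,
      fun g => by simp, fun n => by simp⟩
  have hmS : ∀ g ∈ S, m g = m g₀ := by
    intro g hg
    have h4 := hmN g₀ _ (Finset.mem_filter.1 hg).2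
    rwa [mul_inv_cancel_left] at h4
  have h5 : S.card * m g₀ + ∑ g ∈ Finset.univ.filter (fun g => ¬ g₀⁻¹ * g ∈ ζ.ker), m g =
      S.card := by
    have h4 := Finset.sum_filter_add_sum_filter_not Finset.univ (fun g => g₀⁻¹ * g ∈ ζ.ker) m
    rw [hsum, ← hSc] at h4
    have h5 : ∑ g ∈ Finset.univ.filter (fun g => g₀⁻¹ * g ∈ ζ.ker), m g = S.card * m g₀ := by
      change ∑ g ∈ S, m g = _
      rw [Finset.sum_congr rfl hmS, Finset.sum_const, smul_eq_mul]
    rwa [h5] at h4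
  have hSpos : 0 < S.card := by rw [hSc]; exact Nat.card_pos
  have h6 : S.card ≤ S.card * m g₀ := Nat.le_mul_of_pos_right _ (Nat.pos_of_ne_zero hg₀)
  have h7 : ∑ g ∈ Finset.univ.filter (fun g => ¬ g₀⁻¹ * g ∈ ζ.ker), m g = 0 := by omega
  have h8 : m g₀ = 1 := by
    have h9 : S.card * m g₀ = S.card * 1 := by omega
    exact Nat.eq_of_mul_eq_mul_left hSpos h9
  have h9 : ∀ g, ¬ g₀⁻¹ * g ∈ ζ.ker → m g = 0 := fun g hg =>
    (Finset.sum_eq_zero_iff.1 h7) g (Finset.mem_filter.2 ⟨Finset.mem_univ _, hg⟩)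
  -- (B)
  have hB : ∑ u : U, Fz ζ ζ.ker (ε : ζ.ker → ℂ) u / Nat.card ζ.ker * (((ψ u)⁻¹ : ℂˣ) : ℂ) =
      Nat.card U * (((ζ g₀)⁻¹ : ℂˣ) : ℂ) := by
    have h10 : ∑ u : U, Fz ζ ζ.ker (ε : ζ.ker → ℂ) u * (((ψ u)⁻¹ : ℂˣ) : ℂ) =
        ∑ g : G, (((ζ g)⁻¹ : ℂˣ) : ℂ) * (Nat.card U * m g) := by
      simp_rw [← hm]
      simp_rw [Fz, Finset.sum_mul, Finset.mul_sum]
      rw [Finset.sum_comm]
      refine Fintype.sum_equiv (Equiv.inv G) _ _ fun g => ?_
      rw [Equiv.inv_apply]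
      refine Finset.sum_congr rfl fun u _ => ?_
      rw [inv_inv, map_inv, inv_inv]
      ring
    have h11 : ∑ g : G, (((ζ g)⁻¹ : ℂˣ) : ℂ) * (Nat.card U * m g) =
        Nat.card ζ.ker * (Nat.card U * (((ζ g₀)⁻¹ : ℂˣ) : ℂ)) := by
      rw [← Finset.sum_filter_add_sum_filter_not Finset.univ (fun g => g₀⁻¹ * g ∈ ζ.ker)]
      rw [Finset.sum_eq_zero (s := Finset.univ.filter (fun g => ¬ g₀⁻¹ * g ∈ ζ.ker)), add_zero]
      · have h12 : ∀ g ∈ S, (((ζ g)⁻¹ : ℂˣ) : ℂ) * (Nat.card U * m g) =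
            Nat.card U * (((ζ g₀)⁻¹ : ℂˣ) : ℂ) := by
          intro g hg
          have h13 := MonoidHom.mem_ker.1 (Finset.mem_filter.1 hg).2
          rw [map_mul, map_inv, inv_mul_eq_one] at h13
          rw [hmS g hg, h8, ← h13, Nat.cast_one, mul_one, mul_comm]
        rw [Finset.sum_congr rfl h12, Finset.sum_const, hSc, nsmul_eq_mul]
      · intro g hg
        rw [h9 g (Finset.mem_filter.1 hg).2, Nat.cast_zero, mul_zero, mul_zero]
    have h12 : ∑ u : U, Fz ζ ζ.ker (ε : ζ.ker → ℂ) u / Nat.card ζ.ker * (((ψ u)⁻¹ : ℂˣ) : ℂ) =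
        (∑ u : U, Fz ζ ζ.ker (ε : ζ.ker → ℂ) u * (((ψ u)⁻¹ : ℂˣ) : ℂ)) / Nat.card ζ.ker := by
      rw [Finset.sum_div]
      refine Finset.sum_congr rfl fun u _ => ?_
      ring
    rw [h12, h10, h11, mul_div_cancel_left₀ _ hN0]
  have hI : MemLocalIdeal M ((Nat.card U : ℂ) * (((ζ g₀)⁻¹ : ℂˣ) : ℂ)) := by
    rw [← hB]
    refine memLocalIdeal_sum fun u _ => memLocalIdeal_mul_right (hA u u.2) ?_
    rw [← map_inv]
    exact memLocalRing_val ψ u⁻¹
  have hI2 : MemLocalIdeal M (Nat.card U : ℂ) := by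
    have h10 : (Nat.card U : ℂ) = ((Nat.card U : ℂ) * (((ζ g₀)⁻¹ : ℂˣ) : ℂ)) * ((ζ g₀ : ℂˣ) : ℂ) := by
      rw [mul_assoc, ← Units.val_mul, inv_mul_cancel, Units.val_one, mul_one]
    rw [h10]
    exact memLocalIdeal_mul_right hI (memLocalRing_val ζ g₀)
  rw [memLocalIdeal_natCast_iff hM] at hI2
  exact (Nat.Prime.coprime_iff_not_dvd hp).1 hU.symm hI2

end Lin

end Cfsg.Agent.H223.Sl
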